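import Cfsg.Agent.Lib.H48.QuadSim
import Mathlib.LinearAlgebra.BilinearForm.TensorProduct
import Mathlib.LinearAlgebra.Matrix.Kronecker

/-!
Tensor products of bilinear forms, discriminants and Witt index over finite fields.
-/

set_option autoImplicit false

namespace H18.TensorForm

open H48.QuadSplit H48.QuadStd H48.QuadSim H48.Gram Matrix
open scoped Kronecker TensorProduct

section tensor

variable {F U W : Type*} [Field F] [AddCommGroup U] [Module F U] [AddCommGroup W] [Module F W]

theorem tmul_apply (B₁ : LinearMap.BilinForm F U) (B₂ : LinearMap.BilinForm F W) (u u' : U)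
    (w w' : W) : (B₁.tmul B₂) (u ⊗ₜ w) (u' ⊗ₜ w') = B₂ w w' * B₁ u u' := rfl

theorem toMatrix_tmul {ι κ : Type*} [Fintype ι] [DecidableEq ι] [Fintype κ] [DecidableEq κ]
    (b : Module.Basis ι F U) (c : Module.Basis κ F W) (B₁ : LinearMap.BilinForm F U)
    (B₂ : LinearMap.BilinForm F W) :
    LinearMap.BilinForm.toMatrix (b.tensorProduct c) (B₁.tmul B₂) =
      (LinearMap.BilinForm.toMatrix b B₁) ⊗ₖ (LinearMap.BilinForm.toMatrix c B₂) := by
  ext ⟨i, j⟩ ⟨i', j'⟩
  rw [LinearMap.BilinForm.toMatrix_apply, Module.Basis.tensorProduct_apply,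
    Module.Basis.tensorProduct_apply, tmul_apply, kroneckerMap_apply,
    LinearMap.BilinForm.toMatrix_apply, LinearMap.BilinForm.toMatrix_apply, mul_comm]

theorem det_tmul {ι κ : Type*} [Fintype ι] [DecidableEq ι] [Fintype κ] [DecidableEq κ]
    (b : Module.Basis ι F U) (c : Module.Basis κ F W) (B₁ : LinearMap.BilinForm F U)
    (B₂ : LinearMap.BilinForm F W) :
    (LinearMap.BilinForm.toMatrix (b.tensorProduct c) (B₁.tmul B₂)).det =
      (LinearMap.BilinForm.toMatrix b B₁).det ^ Fintype.card κ *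
        (LinearMap.BilinForm.toMatrix c B₂).det ^ Fintype.card ι := by
  rw [toMatrix_tmul, det_kronecker]

theorem nondegenerate_tmul [FiniteDimensional F U] [FiniteDimensional F W]
    {B₁ : LinearMap.BilinForm F U} {B₂ : LinearMap.BilinForm F W} (h₁ : B₁.Nondegenerate)
    (h₂ : B₂.Nondegenerate) : (B₁.tmul B₂).Nondegenerate := by
  classical
  let b := Module.finBasis F U
  let c := Module.finBasis F W
  refine (LinearMap.BilinForm.nondegenerate_iff_det_ne_zero (b.tensorProduct c)
    (B := B₁.tmul B₂)).2 ?_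
  rw [det_tmul]
  exact mul_ne_zero
    (pow_ne_zero _ ((LinearMap.BilinForm.nondegenerate_iff_det_ne_zero b).1 h₁))
    (pow_ne_zero _ ((LinearMap.BilinForm.nondegenerate_iff_det_ne_zero c).1 h₂))

theorem isSymm_tmul_of_isAlt {B₁ : LinearMap.BilinForm F U} {B₂ : LinearMap.BilinForm F W}
    (h₁ : B₁.IsAlt) (h₂ : B₂.IsAlt) : (B₁.tmul B₂).IsSymm := by
  refine ⟨fun x y => ?_⟩
  rw [RingHom.id_apply]
  induction x using TensorProduct.induction_on with
  | zero => simp
  | add x x' hx hx' => rw [map_add, LinearMap.add_apply, hx, hx', map_add]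
  | tmul u w =>
    induction y using TensorProduct.induction_on with
    | zero => simp
    | add y y' hy hy' => rw [map_add, hy, hy', map_add, LinearMap.add_apply]
    | tmul u' w' =>
      rw [tmul_apply, tmul_apply, ← h₁.neg_eq u' u, ← h₂.neg_eq w' w]
      ring

/-- A nondegenerate alternating form in dimension `2k` has a totally isotropic `k`-subspace. -/
theorem exists_lagrangian [Finite F] [FiniteDimensional F U] {B : LinearMap.BilinForm F U}
    (hB : B.Nondegenerate) (hA : B.IsAlt) (k : ℕ) (hk : Module.finrank F U = 2 * k) :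
    ∃ X : Submodule F U, Module.finrank F X = k ∧ ∀ x ∈ X, ∀ y ∈ X, B x y = 0 := by
  classical
  have hfin : Finite U := Module.finite_of_finite F
  have hsf : Finite (Submodule F U) := inferInstance
  let S : Set (Submodule F U) := {X | ∀ x ∈ X, ∀ y ∈ X, B x y = 0}
  have hSne : S.Nonempty := ⟨⊥, by
    intro x hx y _
    rw [Submodule.mem_bot] at hx
    rw [hx]; simp⟩
  obtain ⟨X, hX, hmax⟩ := Set.Finite.exists_maximal (Set.toFinite S) hSne
  refine ⟨X, ?_, hX⟩
  have h1 : B.orthogonal X = X := by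
    apply le_antisymm
    · intro v hv
      by_contra hvX
      have h2 : X ⊔ Submodule.span F {v} ∈ S := by
        intro x hx y hy
        obtain ⟨x1, hx1, x2, hx2, rfl⟩ := Submodule.mem_sup.1 hx
        obtain ⟨y1, hy1, y2, hy2, rfl⟩ := Submodule.mem_sup.1 hy
        obtain ⟨a, rfl⟩ := Submodule.mem_span_singleton.1 hx2
        obtain ⟨b, rfl⟩ := Submodule.mem_span_singleton.1 hy2
        have e1 : B x1 y1 = 0 := hX x1 hx1 y1 hy1
        have e2 : B x1 v = 0 := LinearMap.BilinForm.mem_orthogonal_iff.1 hv x1 hx1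
        have e3 : B v y1 = 0 := by
          rw [← hA.neg_eq y1 v, LinearMap.BilinForm.mem_orthogonal_iff.1 hv y1 hy1, neg_zero]
        have e4 : B v v = 0 := hA v
        simp [e1, e2, e3, e4]
      have h3 := hmax h2 le_sup_left
      exact hvX (h3 (Submodule.mem_sup_right (Submodule.mem_span_singleton_self v)))
    · intro x hx
      rw [LinearMap.BilinForm.mem_orthogonal_iff]
      intro y hy
      exact hX y hy x hx
  have h2 := LinearMap.BilinForm.finrank_orthogonal hB X
  rw [h1, hk] at h2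
  have h3 : Module.finrank F X ≤ Module.finrank F U := Submodule.finrank_le X
  omega

end tensor

section disc

variable {F V : Type*} [Field F] [AddCommGroup V] [Module F V]

theorem polarBilin_eq {B : LinearMap.BilinForm F V} (hB : B.IsSymm) :
    QuadraticMap.polarBilin (LinearMap.BilinMap.toQuadraticMap B) = (2 : F) • B := by
  ext x y
  rw [LinearMap.BilinMap.polarBilin_toQuadraticMap]
  have : B x y = B y x := hB.eq x y
  simp [LinearMap.flip_apply, ← this, two_mul]

theorem nd_toQuad (h2 : (2 : F) ≠ 0) {B : LinearMap.BilinForm F V} (hB : B.IsSymm)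
    (hn : B.Nondegenerate) : ND (LinearMap.BilinMap.toQuadraticMap B) := by
  rw [nd_iff, polarBilin_eq hB]
  refine ⟨fun x hx => hn.1 x fun y => ?_, fun x hx => hn.2 x fun y => ?_⟩
  · have := hx y
    simpa [h2] using this
  · have := hx y
    simpa [h2] using this

theorem gdet_toQuad {ι : Type*} [Fintype ι] [DecidableEq ι] {B : LinearMap.BilinForm F V}
    (hB : B.IsSymm) (b : Module.Basis ι F V) :
    gdet (LinearMap.BilinMap.toQuadraticMap B) b =
      2 ^ Fintype.card ι * (LinearMap.BilinForm.toMatrix b B).det := by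
  rw [gdet_eq, polarBilin_eq hB, map_smul, det_smul]

theorem det_antidiag (m : ℕ) :
    (fromBlocks 0 1 1 0 : Matrix (Fin m ⊕ Fin m) (Fin m ⊕ Fin m) F).det = (-1) ^ m := by
  have h1 : (fromBlocks 1 1 0 1 : Matrix (Fin m ⊕ Fin m) (Fin m ⊕ Fin m) F).det = 1 := by
    rw [det_fromBlocks_zero₂₁]; simp
  have h2 : (fromBlocks 1 1 0 1 : Matrix (Fin m ⊕ Fin m) (Fin m ⊕ Fin m) F) *
      fromBlocks 0 1 1 0 = fromBlocks 1 1 1 0 := by
    rw [fromBlocks_multiply]; simp
  have h3 : (fromBlocks 1 1 1 0 : Matrix (Fin m ⊕ Fin m) (Fin m ⊕ Fin m) F).det = (-1) ^ m := by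
    rw [det_fromBlocks_one₁₁]
    simp [det_neg]
  rw [← h3, ← h2, det_mul, h1, one_mul]

theorem det_block (m : ℕ) (A D : Matrix (Fin m) (Fin m) F) :
    (fromBlocks 0 A Aᵀ D).det = (-1) ^ m * A.det ^ 2 := by
  have h2 : fromBlocks 0 A Aᵀ D * (fromBlocks 0 1 1 0 : Matrix (Fin m ⊕ Fin m) (Fin m ⊕ Fin m) F) =
      fromBlocks A 0 D Aᵀ := by
    rw [fromBlocks_multiply]; simp
  have h3 := congrArg Matrix.det h2
  rw [det_mul, det_antidiag, det_fromBlocks_zero₁₂, det_transpose] at h3
  have h4 : ((-1 : F) ^ m) * (-1) ^ m = 1 := by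
    rw [← mul_pow]; simp
  calc (fromBlocks 0 A Aᵀ D).det = (fromBlocks 0 A Aᵀ D).det * (((-1 : F) ^ m) * (-1) ^ m) := by
        rw [h4, mul_one]
    _ = (-1) ^ m * ((fromBlocks 0 A Aᵀ D).det * (-1) ^ m) := by ring
    _ = (-1) ^ m * A.det ^ 2 := by rw [h3]; ring

theorem isSquare_of_ti {B : LinearMap.BilinForm F V} (hB : B.IsSymm) [FiniteDimensional F V]
    {m : ℕ} (hV : Module.finrank F V = 2 * m)
    (hX : ∃ X : Submodule F V, Module.finrank F X = m ∧ ∀ x ∈ X, ∀ y ∈ X, B x y = 0)
    {ι : Type*} [Fintype ι] [DecidableEq ι] (b : Module.Basis ι F V) :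
    IsSquare ((-1) ^ m * (LinearMap.BilinForm.toMatrix b B).det) := by
  classical
  obtain ⟨X, hXm, hX0⟩ := hX
  obtain ⟨Y, hXY⟩ := Submodule.exists_isCompl X
  have hYm : Module.finrank F Y = m := by
    have := Submodule.finrank_add_eq_of_isCompl hXY
    omega
  let bX : Module.Basis (Fin m) F X := (Module.finBasis F X).reindex (finCongr hXm)
  let bY : Module.Basis (Fin m) F Y := (Module.finBasis F Y).reindex (finCongr hYm)
  let b0 : Module.Basis (Fin m ⊕ Fin m) F V :=
    (bX.prod bY).map (Submodule.prodEquivOfIsCompl X Y hXY)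
  have hb0 : ∀ i, b0 (Sum.inl i) ∈ X := by
    intro i
    simp [b0]
  have hM : LinearMap.BilinForm.toMatrix b0 B =
      fromBlocks 0 (LinearMap.BilinForm.toMatrix b0 B).toBlocks₁₂
        ((LinearMap.BilinForm.toMatrix b0 B).toBlocks₁₂)ᵀ
        (LinearMap.BilinForm.toMatrix b0 B).toBlocks₂₂ := by
    ext i j
    rcases i with i | i <;> rcases j with j | j
    · rw [fromBlocks_apply₁₁, LinearMap.BilinForm.toMatrix_apply]
      exact hX0 _ (hb0 i) _ (hb0 j)
    · rfl
    · rw [fromBlocks_apply₂₁, transpose_apply]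
      show LinearMap.BilinForm.toMatrix b0 B _ _ = LinearMap.BilinForm.toMatrix b0 B _ _
      rw [LinearMap.BilinForm.toMatrix_apply, LinearMap.BilinForm.toMatrix_apply]
      exact hB.eq _ _
    · rfl
  have hdet : (LinearMap.BilinForm.toMatrix b0 B).det =
      (-1) ^ m * (LinearMap.BilinForm.toMatrix b0 B).toBlocks₁₂.det ^ 2 := by
    conv_lhs => rw [hM]
    exact det_block m _ _
  have hcard : Fintype.card ι = 2 * m := by
    rw [← hV, Module.finrank_eq_card_basis b]
  -- change of basis
  let e : Fin m ⊕ Fin m ≃ ι := Fintype.equivOfCardEq (by simp [hcard]; ring)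
  have h1 := LinearMap.BilinForm.toMatrix_mul_basis_toMatrix (b.reindex e.symm) b0 B
  have h2 : (LinearMap.BilinForm.toMatrix (b.reindex e.symm) B).det =
      (LinearMap.BilinForm.toMatrix b B).det := by
    have : LinearMap.BilinForm.toMatrix (b.reindex e.symm) B =
        (LinearMap.BilinForm.toMatrix b B).submatrix e e := by
      ext i j
      simp [LinearMap.BilinForm.toMatrix_apply]
    rw [this, det_submatrix_equiv_self]
  have h3 := congrArg Matrix.det h1
  rw [det_mul, det_mul, det_transpose, h2, hdet] at h3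
  set P := ((b.reindex e.symm).toMatrix b0).det with hP
  have hPne : P ≠ 0 := by
    intro h0
    have h4 : ((b.reindex e.symm).toMatrix b0 * b0.toMatrix (b.reindex e.symm)).det = 1 := by
      rw [Module.Basis.toMatrix_mul_toMatrix_flip, det_one]
    rw [det_mul, ← hP, h0, zero_mul] at h4
    exact zero_ne_one h4
  have h4 : ((-1 : F) ^ m) * (-1) ^ m = 1 := by
    rw [← mul_pow]; simp
  refine ⟨(LinearMap.BilinForm.toMatrix b0 B).toBlocks₁₂.det / P, ?_⟩
  rw [div_mul_div_comm, eq_div_iff (mul_ne_zero hPne hPne)]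
  calc (-1) ^ m * (LinearMap.BilinForm.toMatrix b B).det * (P * P) =
      (-1) ^ m * (P * (LinearMap.BilinForm.toMatrix b B).det * P) := by ring
    _ = (-1) ^ m * ((-1) ^ m * (LinearMap.BilinForm.toMatrix b0 B).toBlocks₁₂.det ^ 2) := by
        rw [h3]
    _ = (((-1 : F) ^ m) * (-1) ^ m) * (LinearMap.BilinForm.toMatrix b0 B).toBlocks₁₂.det ^ 2 := by
        ring
    _ = _ := by rw [h4]; ring

theorem ti_of_isSquare [Finite F] (h2 : (2 : F) ≠ 0) {B : LinearMap.BilinForm F V} (hB : B.IsSymm)
    (hn : B.Nondegenerate) [FiniteDimensional F V]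
    {m : ℕ} (hV : Module.finrank F V = 2 * m)
    {ι : Type*} [Fintype ι] [DecidableEq ι] (b : Module.Basis ι F V)
    (hsq : IsSquare ((-1) ^ m * (LinearMap.BilinForm.toMatrix b B).det)) :
    ∃ X : Submodule F V, Module.finrank F X = m ∧ ∀ x ∈ X, ∀ y ∈ X, B x y = 0 := by
  classical
  have hcard : Fintype.card ι = 2 * m := by
    rw [← hV, Module.finrank_eq_card_basis b]
  have h1 : (LinearMap.BilinMap.toQuadraticMap B).Equivalent (qPlus m F) := by
    obtain ⟨d, hd, hd'⟩ := gdet_qPlus (F := F) m (Pi.basisFun F (Fin m ⊕ Fin m))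
    rw [equivalent_iff_gdet h2 (nd_toQuad h2 hB hn) (nd_qPlus m) (by simp [hV]; ring) b
      (Pi.basisFun F (Fin m ⊕ Fin m)), hd', gdet_toQuad hB, hcard]
    obtain ⟨s, hs⟩ := hsq
    refine ⟨2 ^ m * d * s, ?_⟩
    calc 2 ^ (2 * m) * (LinearMap.BilinForm.toMatrix b B).det * (d ^ 2 * (-1) ^ m) =
        (2 ^ m * d) ^ 2 * ((-1) ^ m * (LinearMap.BilinForm.toMatrix b B).det) := by ring
      _ = _ := by rw [hs]; ring
  obtain ⟨e⟩ := h1
  let inc : (Fin m → F) →ₗ[F] (Fin m ⊕ Fin m → F) :=
    { toFun := fun v => Sum.elim v 0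
      map_add' := by
        intro v w; funext i; rcases i with i | i <;> simp
      map_smul' := by
        intro c v; funext i; rcases i with i | i <;> simp }
  let g : (Fin m → F) →ₗ[F] V := e.toLinearEquiv.symm.toLinearMap.comp inc
  have hginj : Function.Injective g := by
    intro v w h
    have h3 : inc v = inc w := e.toLinearEquiv.symm.injective h
    funext i
    exact congrFun h3 (Sum.inl i)
  have hQ0 : ∀ v, B (g v) (g v) = 0 := by
    intro v
    have h3 := e.map_app (g v)
    have h4 : e (g v) = inc v := e.toLinearEquiv.apply_symm_apply (inc v)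
    rw [h4, qPlus_apply, LinearMap.BilinMap.toQuadraticMap_apply] at h3
    rw [← h3]
    refine Finset.sum_eq_zero fun i _ => ?_
    show v i * (0 : F) = 0
    rw [mul_zero]
  refine ⟨LinearMap.range g, ?_, ?_⟩
  · rw [LinearMap.finrank_range_of_inj hginj]; simp
  · rintro _ ⟨v, rfl⟩ _ ⟨w, rfl⟩
    have h3 := hQ0 (v + w)
    simp only [map_add, LinearMap.add_apply, hQ0] at h3
    have h4 : B (g v) (g w) = B (g w) (g v) := hB.eq (g v) (g w)
    rw [← h4, zero_add, add_zero] at h3
    have h5 : 2 * B (g v) (g w) = 0 := by linear_combination h3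
    exact (mul_eq_zero.1 h5).resolve_left h2

end disc

end H18.TensorForm
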