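import Mathlib
import Cfsg.Agent.Lib.H18.PGNum

/-!
Arithmetic for prime graph recognition of `PSL₂(2^m)`.
-/
set_option autoImplicit false

namespace H18.PGNum

open H53.Zsig

theorem two_m (m : ℕ) : 2 ^ (2 * m) - 1 = (2 ^ m + 1) * (2 ^ m - 1) := by
  have h1 : 1 ≤ 2 ^ m := Nat.one_le_two_pow
  obtain ⟨k, hk⟩ := Nat.exists_eq_add_of_le h1
  rw [mul_comm 2 m, pow_mul, hk, Nat.add_sub_cancel_left]
  have : (1 + k) ^ 2 = (1 + k + 1) * k + 1 := by ring
  omega

theorem psl_dvd {m r : ℕ} (hr : r.Prime) (h2 : r ≠ 2) :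
    r ∣ (2 ^ m + 1) * (2 ^ m * (2 ^ m - 1)) ↔ r ∣ 2 ^ (2 * m) - 1 := by
  rw [two_m, hr.dvd_mul, hr.dvd_mul, hr.dvd_mul]
  constructor
  · rintro (h | h | h)
    · exact Or.inl h
    · exact absurd ((Nat.prime_dvd_prime_iff_eq hr Nat.prime_two).1 (hr.dvd_of_dvd_pow h)) h2
    · exact Or.inr h
  · rintro (h | h)
    · exact Or.inl h
    · exact Or.inr (Or.inr h)

theorem mersenne_fermat {m p k z : ℕ} (hm : 4 ≤ m) (h7 : 7 ≤ p) (hp : p.Prime)
    (hk : p = 2 ^ k + 1 ∨ p + 1 = 2 ^ k) (hz : z.Prime) (hzo : orderOf (2 : ZMod z) = 2 * m)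
    (h : ∀ r : ℕ, r.Prime → r ≠ 2 → (r ∣ 2 ^ (2 * m) - 1 ↔ r ∣ (p + 1) * (p * (p - 1)))) : False := by
  have hz2 := ne_two hzo (by omega)
  have hnp : ∀ r : ℕ, r.Prime → r ≠ 2 → ∀ j, ¬ r ∣ 2 ^ j := fun r hr hr2 j hd =>
    hr2 ((Nat.prime_dvd_prime_iff_eq hr Nat.prime_two).1 (hr.dvd_of_dvd_pow hd))
  have hpd : p ∣ 2 ^ (2 * m) - 1 := (h p hp (by omega)).2 ((dvd_mul_right _ _).mul_left _)
  have hple : p ≤ 2 ^ m + 1 := by
    rw [two_m, hp.dvd_mul] at hpd
    have h16 : 2 ^ 4 ≤ 2 ^ m := Nat.pow_le_pow_right (by norm_num) hm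
    rcases hpd with h1 | h1
    · exact Nat.le_of_dvd (by omega) h1
    · have := Nat.le_of_dvd (by omega) h1
      omega
  have hzd := (h z hz hz2).1 ((dvd_iff hzo).2 dvd_rfl)
  rcases hk with hk | hk
  · -- Fermat
    have hk2 : 2 < k := by
      by_contra hc
      have : 2 ^ k ≤ 2 ^ 2 := Nat.pow_le_pow_right (by norm_num) (by omega)
      omega
    have hkm : k ≤ m := by
      have : 2 ^ k ≤ 2 ^ m := by omega
      exact (Nat.pow_le_pow_iff_right (by norm_num)).1 this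
    obtain ⟨j, rfl⟩ : ∃ j, k = j + 1 := ⟨k - 1, by omega⟩
    have hpp : p + 1 = 2 * (2 ^ j + 1) := by rw [hk, pow_succ]; ring
    have hpm : p - 1 = 2 ^ (j + 1) := by omega
    have key : ∀ r : ℕ, r.Prime → r ≠ 2 → r ∣ (p + 1) * (p * (p - 1)) → r ∣ 2 ^ (2 * j) - 1 ∨ r = p := by
      intro r hr hr2 hd
      rcases hr.dvd_mul.1 hd with h1 | h1
      · left
        rw [hpp] at h1
        rcases hr.dvd_mul.1 h1 with h2 | h2
        · exact absurd ((Nat.prime_dvd_prime_iff_eq hr Nat.prime_two).1 h2) hr2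
        · rw [two_m]; exact h2.mul_right _
      · rcases hr.dvd_mul.1 h1 with h2 | h2
        · right; exact (Nat.prime_dvd_prime_iff_eq hr hp).1 h2
        · rw [hpm] at h2
          exact absurd h2 (hnp r hr hr2 _)
    have hp2 : p ∣ 2 ^ (2 * (j + 1)) - 1 := by rw [two_m, ← hk]; exact dvd_mul_right _ _
    rcases key z hz hz2 hzd with h1 | h1
    · have h2 := Nat.le_of_dvd (by omega) ((dvd_iff hzo).1 h1)
      omega
    · subst h1
      have h2 := Nat.le_of_dvd (by omega) ((dvd_iff hzo).1 hp2)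
      have hmj : m = j + 1 := by omega
      subst hmj
      have h6 : j + 1 ≠ 6 := by
        intro h6
        rw [hk, h6] at hp
        norm_num at hp
      obtain ⟨w, hw, hwo⟩ := exists_z (n := j + 1) (by omega) h6
      have hw2 := ne_two hwo (by omega)
      have h3 : w ∣ 2 ^ (j + 1) - 1 := (dvd_iff hwo).2 dvd_rfl
      rcases key w hw hw2 ((h w hw hw2).1 (by rw [two_m]; exact h3.mul_left _)) with h4 | h4
      · have h5 := (dvd_iff hwo).1 h4
        have h6 : j + 1 ∣ 2 := by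
          have : j + 1 ∣ 2 * (j + 1) - 2 * j := Nat.dvd_sub (dvd_mul_left _ _) h5
          have e : 2 * (j + 1) - 2 * j = 2 := by omega
          rwa [e] at this
        have := Nat.le_of_dvd (by norm_num) h6
        omega
      · subst h4
        have h16 : 2 ^ 4 ≤ 2 ^ (j + 1) := Nat.pow_le_pow_right (by norm_num) hm
        have := Nat.le_of_dvd (by omega) h3
        omega
  · -- Mersenne
    have hk2 : 2 < k := by
      by_contra hc
      have : 2 ^ k ≤ 2 ^ 2 := Nat.pow_le_pow_right (by norm_num) (by omega)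
      omega
    have hkm : k ≤ m := by
      have h1 : 2 ^ k < 2 ^ (m + 1) := by
        rw [pow_succ]
        have h16 : 2 ^ 4 ≤ 2 ^ m := Nat.pow_le_pow_right (by norm_num) hm
        omega
      have := (Nat.pow_lt_pow_iff_right (by norm_num)).1 h1
      omega
    obtain ⟨j, rfl⟩ : ∃ j, k = j + 1 := ⟨k - 1, by omega⟩
    have h4 : 2 ^ 2 ≤ 2 ^ j := Nat.pow_le_pow_right (by norm_num) (by omega)
    have hpm : p - 1 = 2 * (2 ^ j - 1) := by rw [pow_succ] at hk; omega
    rcases hz.dvd_mul.1 hzd with h1 | h1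
    · rw [hk] at h1
      exact hnp z hz hz2 _ h1
    · rcases hz.dvd_mul.1 h1 with h2 | h2
      · have h3 : z ∣ 2 ^ (j + 1) - 1 := by
          rw [← hk, Nat.add_sub_cancel]; exact h2
        have := Nat.le_of_dvd (by omega) ((dvd_iff hzo).1 h3)
        omega
      · rw [hpm] at h2
        rcases hz.dvd_mul.1 h2 with h3 | h3
        · exact hz2 ((Nat.prime_dvd_prime_iff_eq hz Nat.prime_two).1 h3)
        · have := Nat.le_of_dvd (by omega) ((dvd_iff hzo).1 h3)
          omega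

end H18.PGNum
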