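import Cfsg.Agent.Lib.H18.RelM
import Cfsg.Agent.Lib.H11.MinNormal

/-!
Relative M-groups over A-groups are M-groups (Isaacs 6.23).
-/

set_option autoImplicit false
set_option linter.unusedSectionVars false

namespace H18.RelM2

open Cfsg H18.CharBasic H18.CharOrtho H18.CharInd H18.CharQuot H31.Clifford H18.Primitive

universe u

/-- Step (iii). -/
theorem degree_one_of_primitive {Q : Type u} [Group Q] [Fintype Q] (hsolv : Group.IsSolvable Q)
    (M : Subgroup Q) [hM : M.Normal]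
    (hab : ∀ (p : ℕ) [Fact p.Prime] (P : Subgroup Q), P ≤ M → IsPGroup p P →
      ∀ a ∈ P, ∀ b ∈ P, a * b = b * a)
    {η : Q → ℂ} (hη : IsIrrCharacter Q η) (hηM : IsIrrCharacter M (fun x : M => η x))
    (hprim : ¬ ∃ (T : Subgroup Q) (ψ : T → ℂ), T ≠ ⊤ ∧ IsIrrCharacter T ψ ∧ indFun T ψ = η) :
    η 1 = 1 := by
  classical
  have hcen : ∀ (A : Subgroup Q) [A.Normal],
      (∀ a ∈ A, ∀ b ∈ A, η (a * b * a⁻¹ * b⁻¹) = η 1) →
      ∀ a ∈ A, ∀ g : Q, η (a * g * a⁻¹ * g⁻¹) = η 1 := fun A _ hA =>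
    (central_or_induced hη A hA).resolve_right hprim
  have hch := isCharacter_of_isIrr hη
  let K := kerSub η hch
  have hK : ∀ {g : Q}, g ∈ K ↔ η g = η 1 := fun {g} => mem_kerSub hch
  have hKn : K.Normal := by
    refine ⟨fun n hn g => ?_⟩
    rw [hK] at hn ⊢
    rw [isClassFunction_of_isCharacter hch n g, hn]
  let Z₀ : Subgroup Q := (Subgroup.center (Q ⧸ K)).comap (QuotientGroup.mk' K)
  have hcomm : ∀ a b : Q, η (a * b * a⁻¹ * b⁻¹) = η 1 ↔ Commute (a : Q ⧸ K) (b : Q ⧸ K) := by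
    intro a b
    rw [← hK, ← QuotientGroup.eq_one_iff]
    simp only [QuotientGroup.mk_mul, QuotientGroup.mk_inv]
    rw [mul_inv_eq_one, mul_inv_eq_iff_eq_mul]
    exact Iff.rfl
  have hZ₀ : ∀ z : Q, z ∈ Z₀ ↔ ∀ g : Q, η (z * g * z⁻¹ * g⁻¹) = η 1 := by
    intro z
    rw [Subgroup.mem_comap, Subgroup.mem_center_iff]
    constructor
    · intro h g
      rw [hcomm]
      exact (h (g : Q ⧸ K)).symm
    · intro h g
      obtain ⟨g, rfl⟩ := QuotientGroup.mk_surjective g
      exact ((hcomm z g).1 (h g)).symm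
  have hZ₀n : Z₀.Normal := Subgroup.Normal.comap inferInstance _
  by_cases hMZ : M ≤ Z₀
  · have h1 := degree_one_of_commutator hηM (fun a b => (hZ₀ a).1 (hMZ a.2) b)
    exact h1
  exfalso
  let Z := M ⊓ Z₀
  have hZn : Z.Normal := inferInstance
  let M' : Subgroup (Q ⧸ Z) := M.map (QuotientGroup.mk' Z)
  have hM'n : M'.Normal := Subgroup.Normal.map inferInstance _ (QuotientGroup.mk'_surjective Z)
  have hM'ne : M' ≠ ⊥ := by
    intro h
    rw [Subgroup.map_eq_bot_iff, QuotientGroup.ker_mk'] at h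
    exact hMZ (h.trans inf_le_right)
  -- minimal normal subgroup inside M'
  let S : Set (Subgroup (Q ⧸ Z)) := {D | D.Normal ∧ D ≤ M' ∧ D ≠ ⊥}
  obtain ⟨D, ⟨hDn, hDM, hDne⟩, hDmin⟩ := Set.Finite.exists_minimal (Set.toFinite S)
    ⟨M', hM'n, le_rfl, hM'ne⟩
  have hsQZ : Group.IsSolvable (Q ⧸ Z) := solvable_of_surjective (QuotientGroup.mk'_surjective Z)
  have hmin : ∀ D' : Subgroup (Q ⧸ Z), D'.Normal → D' ≤ D → D' = ⊥ ∨ D' = D := by
    intro D' hD' hle
    by_cases h : D' = ⊥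
    · exact Or.inl h
    · exact Or.inr (le_antisymm hle (hDmin ⟨hD', hle.trans hDM, h⟩ hle))
  obtain ⟨p, hp, hpD⟩ : ∃ p : ℕ, p.Prime ∧ IsPGroup p D := by
    obtain ⟨_, p, hp, hpg, _⟩ := H11.MinNormal.minimal_normal_abelian hsQZ D hDne hmin
    exact ⟨p, hp, hpg⟩
  have : Fact p.Prime := ⟨hp⟩
  let E : Subgroup Q := D.comap (QuotientGroup.mk' Z)
  have hEn : E.Normal := Subgroup.Normal.comap hDn _
  have hEM : E ≤ M := by
    intro x hx
    have h1 : QuotientGroup.mk' Z x ∈ M' := hDM hx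
    obtain ⟨m, hm, hmx⟩ := h1
    have h2 : m⁻¹ * x ∈ Z := QuotientGroup.eq.1 hmx
    have h3 : m * (m⁻¹ * x) ∈ M := M.mul_mem hm (inf_le_left (a := M) (b := Z₀) h2)
    rwa [mul_inv_cancel_left] at h3
  have hZE : Z ≤ E := by
    intro x hx
    show QuotientGroup.mk' Z x ∈ D
    have : QuotientGroup.mk' Z x = 1 := (QuotientGroup.eq_one_iff x).2 hx
    rw [this]; exact Subgroup.one_mem D
  -- E = Z P
  obtain ⟨P⟩ : Nonempty (Sylow p E) := inferInstance
  let P' : Subgroup Q := (P : Subgroup E).map E.subtype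
  have hP'E : P' ≤ E := by rintro _ ⟨y, _, rfl⟩; exact y.2
  have hP'pg : IsPGroup p P' := P.isPGroup'.map E.subtype
  have hP'ab := hab p P' (hP'E.trans hEM) hP'pg
  have hcover : ∀ x ∈ E, ∃ z ∈ Z, ∃ y ∈ P', x = z * y := by
    -- the index of Z.subgroupOf E is a p-power, so Z.subgroupOf E ⊔ P = ⊤
    have hidx : ∃ k, (Z.subgroupOf E).index = p ^ k := by
      have h1 : (Z.subgroupOf E) = ((QuotientGroup.mk' Z).comp E.subtype).ker := by
        ext x
        rw [Subgroup.mem_subgroupOf, MonoidHom.mem_ker]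
        exact (QuotientGroup.eq_one_iff (x : Q)).symm
      rw [h1, Subgroup.index_ker]
      have h2 : ((QuotientGroup.mk' Z).comp E.subtype).range ≤ D := by
        rintro _ ⟨x, rfl⟩
        exact x.2
      have h3 : IsPGroup p ((QuotientGroup.mk' Z).comp E.subtype).range := hpD.to_le h2
      exact IsPGroup.iff_card.1 h3
    obtain ⟨k, hk⟩ := hidx
    have hZEn : (Z.subgroupOf E).Normal := hZn.subgroupOf E
    have htop : (Z.subgroupOf E) ⊔ (P : Subgroup E) = ⊤ := by
      by_contra hne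
      have h1 : ((Z.subgroupOf E) ⊔ (P : Subgroup E)).index ∣ p ^ k := by
        rw [← hk]; exact Subgroup.index_dvd_of_le le_sup_left
      have h2 : ((Z.subgroupOf E) ⊔ (P : Subgroup E)).index ∣ (P : Subgroup E).index :=
        Subgroup.index_dvd_of_le le_sup_right
      obtain ⟨j, _, hj⟩ := (Nat.dvd_prime_pow hp).1 h1
      rcases Nat.eq_zero_or_pos j with h0 | h0
      · rw [h0, pow_zero, Subgroup.index_eq_one] at hj
        exact hne hj
      · apply P.not_dvd_index
        refine dvd_trans ?_ h2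
        rw [hj]
        exact dvd_pow_self p h0.ne'
    intro x hx
    have h1 : (⟨x, hx⟩ : E) ∈ (Z.subgroupOf E) ⊔ (P : Subgroup E) := by rw [htop]; trivial
    obtain ⟨z, hz, y, hy, hzy⟩ := Subgroup.mem_sup_of_normal_left.1 h1
    refine ⟨z, Subgroup.mem_subgroupOf.1 hz, y, ⟨y, hy, rfl⟩, ?_⟩
    have := congrArg (fun t : E => (t : Q)) hzy
    exact this.symm
  have hEab : ∀ a ∈ E, ∀ b ∈ E, η (a * b * a⁻¹ * b⁻¹) = η 1 := by
    intro a ha b hb
    obtain ⟨z, hz, x, hx, rfl⟩ := hcover a ha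
    obtain ⟨w, hw, y, hy, rfl⟩ := hcover b hb
    rw [hcomm]
    have hz' : ∀ g : Q, Commute (z : Q ⧸ K) (g : Q ⧸ K) := fun g =>
      (hcomm z g).1 ((hZ₀ z).1 hz.2 g)
    have hw' : ∀ g : Q, Commute (w : Q ⧸ K) (g : Q ⧸ K) := fun g =>
      (hcomm w g).1 ((hZ₀ w).1 hw.2 g)
    have hxy : Commute (x : Q ⧸ K) (y : Q ⧸ K) := by
      have := congrArg (QuotientGroup.mk' K) (hP'ab x hx y hy)
      rw [map_mul, map_mul] at this
      exact this
    rw [QuotientGroup.mk_mul, QuotientGroup.mk_mul]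
    exact Commute.mul_left (Commute.mul_right (hz' w) (hz' y))
      (Commute.mul_right (hw' x).symm hxy)
  have hEZ : E ≤ Z := by
    intro x hx
    exact ⟨hEM hx, (hZ₀ x).2 (hcen E hEab x hx)⟩
  apply hDne
  rw [eq_bot_iff]
  intro d hd
  obtain ⟨x, rfl⟩ := QuotientGroup.mk_surjective d
  have : x ∈ Z := hEZ hd
  rw [Subgroup.mem_bot]
  exact (QuotientGroup.eq_one_iff x).2 this

/-- A constituent has degree at most the degree. -/
theorem degree_le_of_constituent {A : Type u} [Group A] [Fintype A] {χ ψ : A → ℂ}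
    (hχ : IsCharacter A χ) (hψ : IsIrrCharacter A ψ) (hne : classInner χ ψ ≠ 0) {m n : ℕ}
    (hm : χ 1 = m) (hn : ψ 1 = n) : n ≤ m ∧ (n = m → χ = ψ) := by
  have h1 := isCharacter_sub_constituent hχ hψ hne
  obtain ⟨k, hk⟩ := exists_degree h1
  rw [Pi.sub_apply, hm, hn] at hk
  have h2 : m = n + k := by
    have : (m : ℂ) = n + k := by linear_combination hk
    exact_mod_cast this
  refine ⟨by omega, fun h => ?_⟩
  have h3 : k = 0 := by omega
  have h4 : (χ - ψ) 1 = 0 := by
    rw [Pi.sub_apply, hm, hn, hk, h3, Nat.cast_zero]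
  exact sub_eq_zero.1 (char_eq_zero_of_one h1 h4)

/-- Step (ii). -/
theorem irr_inter {G : Type u} [Group G] [Fintype G] (N : Subgroup G) [hN : N.Normal]
    {χ : G → ℂ} (hχ : IsIrrCharacter G χ) (hχN : IsIrrCharacter N (fun x : N => χ x))
    (Q : Subgroup G) {η : Q → ℂ} (hη : IsIrrCharacter Q η) (hind : indFun Q η = χ) :
    IsIrrCharacter (N.subgroupOf Q) (fun x : N.subgroupOf Q => η x) := by
  classical
  have : Fintype Q := Fintype.ofFinite _
  have : Fintype N := Fintype.ofFinite _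
  have : Fintype (N.subgroupOf Q) := Fintype.ofFinite _
  have : Fintype (Q.subgroupOf N) := Fintype.ofFinite _
  have hηc := isCharacter_of_isIrr hη
  have hχc := isCharacter_of_isIrr hχ
  have hηM := isCharacter_restrict (N.subgroupOf Q) hηc
  obtain ⟨φ, hφ, hne⟩ := exists_constituent_restrict (N.subgroupOf Q) hη
  -- φ is a constituent of χ restricted
  have h1 : classInner (fun x : Q => χ x) η ≠ 0 := by
    rw [← frobenius' Q η (isClassFunction_of_isIrr hχ), hind, inner_irr_self hχ]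
    exact one_ne_zero
  have h2 : IsCharacter Q ((fun x : Q => χ x) - η) :=
    isCharacter_sub_constituent (isCharacter_restrict Q hχc) hη h1
  have h3 : classInner (fun x : N.subgroupOf Q => χ ((x : Q) : G)) φ ≠ 0 := by
    have h4 : (fun x : N.subgroupOf Q => χ ((x : Q) : G)) =
        (fun x : N.subgroupOf Q => η x) + (fun x : N.subgroupOf Q => ((fun x : Q => χ x) - η) x) := by
      funext x
      simp
    rw [h4]
    exact inner_add_ne_zero_left hηM (isCharacter_restrict _ h2) (isCharacter_of_isIrr hφ) hne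
  let e : Q.subgroupOf N ≃* N.subgroupOf Q :=
    { toFun := fun x => ⟨⟨((x : N) : G), Subgroup.mem_subgroupOf.1 x.2⟩,
        Subgroup.mem_subgroupOf.2 (x : N).2⟩
      invFun := fun x => ⟨⟨((x : Q) : G), Subgroup.mem_subgroupOf.1 x.2⟩,
        Subgroup.mem_subgroupOf.2 (x : Q).2⟩
      left_inv := fun _ => rfl
      right_inv := fun _ => rfl
      map_mul' := fun _ _ => rfl }
  have hφ' : IsIrrCharacter (Q.subgroupOf N) (fun x => φ (e x)) :=
    (isIrrCharacter_mulEquiv e).1 hφ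
  have h4 : classInner (fun x : Q.subgroupOf N => χ ((x : N) : G)) (fun x => φ (e x)) ≠ 0 := by
    have := classInner_mulEquiv e (fun x : N.subgroupOf Q => χ ((x : Q) : G)) φ
    rw [← this] at h3
    exact h3
  have h5 : classInner (fun x : N => χ x) (indFun (Q.subgroupOf N) (fun x => φ (e x))) ≠ 0 := by
    rw [frobenius' _ _ (isClassFunction_of_isIrr hχN)]
    exact h4
  have h6 := (classInner_ne_zero_symm).1 h5
  obtain ⟨a, ha⟩ := exists_degree hηc
  obtain ⟨b, hb⟩ := exists_degree (isCharacter_of_isIrr hφ)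
  have h7 : indFun (Q.subgroupOf N) (fun x => φ (e x)) 1 = ((Q.subgroupOf N).index * b : ℕ) := by
    rw [indFun_one, map_one, hb]
    push_cast; rfl
  have h8 : (fun x : N => χ x) 1 = (Q.index * a : ℕ) := by
    show χ ((1 : N) : G) = _
    rw [Subgroup.coe_one, ← hind, indFun_one, ha]
    push_cast; rfl
  have h9 := (degree_le_of_constituent (isCharacter_ind _ (isCharacter_of_isIrr hφ')) hχN h6 h7 h8).1
  have h10 : (fun x : N.subgroupOf Q => η x) 1 = a := ha
  obtain ⟨h11, h12⟩ := degree_le_of_constituent hηM hφ hne h10 hb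
  have h13 : (Q.subgroupOf N).index ≤ Q.index := by
    have h := Subgroup.relIndex_le_of_le_right (H := Q) (K := N) (L := ⊤) le_top (by
      rw [Subgroup.relIndex_top_right]; exact Subgroup.index_ne_zero_of_finite)
    rwa [Subgroup.relIndex_top_right] at h
  have hQpos : 0 < Q.index := Nat.pos_of_ne_zero Subgroup.index_ne_zero_of_finite
  have h14 : Q.index * a ≤ Q.index * b := h9.trans (Nat.mul_le_mul_right b h13)
  have h15 : a ≤ b := Nat.le_of_mul_le_mul_left h14 hQpos
  rw [h12 (by omega)]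
  exact hφ

/-- An irreducible character restricting irreducibly to a normal A-subgroup of a solvable group is
monomial. -/
theorem monomial_of_restrict (n : ℕ) {G : Type u} [Group G] [Fintype G] (hsolv : Group.IsSolvable G)
    (N : Subgroup G) [hN : N.Normal]
    (hab : ∀ (p : ℕ) [Fact p.Prime] (P : Subgroup G), P ≤ N → IsPGroup p P →
      ∀ a ∈ P, ∀ b ∈ P, a * b = b * a)
    {χ : G → ℂ} (hχ : IsIrrCharacter G χ) (hχN : IsIrrCharacter N (fun x : N => χ x)) :
    ∀ (Q : Subgroup G) (η : Q → ℂ), Nat.card Q = n → IsIrrCharacter Q η → indFun Q η = χ →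
    ∃ (U : Subgroup G) (lam : U → ℂ), IsCharacter U lam ∧ lam 1 = 1 ∧ indFun U lam = χ := by
  induction n using Nat.strong_induction_on with
  | _ n ih =>
  intro Q η hn hη hind
  classical
  have : Fintype Q := Fintype.ofFinite _
  by_cases hp : ∃ (T : Subgroup Q) (ψ : T → ℂ), T ≠ ⊤ ∧ IsIrrCharacter T ψ ∧ indFun T ψ = η
  · obtain ⟨T, ψ, hT, hψ, hTη⟩ := hp
    obtain ⟨ψ', hψ', hind', -⟩ := H18.RelM.exists_trans Q T ψ hψ
    refine ih _ ?_ (T.map Q.subtype) ψ' rfl hψ' (by rw [hind', hTη, hind])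
    have h1 : Nat.card (T.map Q.subtype) = Nat.card T :=
      Nat.card_congr (T.equivMapOfInjective Q.subtype Q.subtype_injective).symm.toEquiv
    rw [h1, ← hn]
    exact lt_of_le_of_ne (Subgroup.card_le_card_group T) (fun h => hT (Subgroup.eq_top_of_card_eq T h))
  · have hMn : (N.subgroupOf Q).Normal := hN.subgroupOf Q
    have hηM := irr_inter N hχ hχN Q hη hind
    have h1 := degree_one_of_primitive (inferInstance : Group.IsSolvable Q) (N.subgroupOf Q) (by
      intro p _ P hP hpg a ha b hb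
      have h2 := hab p (P.map Q.subtype) (by
        rintro _ ⟨x, hx, rfl⟩
        exact Subgroup.mem_subgroupOf.1 (hP hx)) (hpg.map Q.subtype) a ⟨a, ha, rfl⟩ b ⟨b, hb, rfl⟩
      exact Subtype.ext h2) hη hηM hp
    exact ⟨Q, η, isCharacter_of_isIrr hη, h1, hind⟩

end H18.RelM2
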